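import Mathlib

/-!
The transfer of a finite group into the abelianization of its derived subgroup is trivial
(Furtwängler's theorem), by a determinant in the group ring of the abelianization.
-/

set_option autoImplicit false
set_option linter.unusedSectionVars false

noncomputable section

namespace CfsgLib.Furtwaengler

variable {G : Type*} [Group G]

/-- The group ring of `G`. -/
abbrev R0 (G : Type*) [Group G] : Type _ := MonoidAlgebra ℤ G

/-- The augmentation-style derivation `g - 1`. -/
def phi (g : G) : R0 G := MonoidAlgebra.of ℤ G g - 1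

/-- The projection to the group ring of the abelianization. -/
def proj : R0 G →+* MonoidAlgebra ℤ (Abelianization G) :=
  (MonoidAlgebra.lift ℤ (MonoidAlgebra ℤ (Abelianization G)) G
    ((MonoidAlgebra.of ℤ (Abelianization G)).comp Abelianization.of)).toRingHom

theorem proj_of (g : G) :
    proj (MonoidAlgebra.of ℤ G g) = MonoidAlgebra.of ℤ (Abelianization G) (Abelianization.of g) := by
  simp [proj]

theorem proj_single (g : G) (z : ℤ) :
    proj (MonoidAlgebra.single g z) = MonoidAlgebra.single (Abelianization.of g) z := by
  simp [proj]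

/-- The left ideal of the products of augmentation elements of `G'` and of `G`. -/
def relIdeal (G : Type*) [Group G] : Submodule (R0 G) (R0 G) :=
  Submodule.span (R0 G) {x | ∃ a ∈ commutator G, ∃ g : G, x = phi a * phi g}

/-- A fixed choice of representatives. -/
def rep (q : Abelianization G) : G := Quotient.out (q : G ⧸ commutator G)

theorem of_rep (q : Abelianization G) : Abelianization.of (rep q) = q :=
  Quotient.out_eq (q : G ⧸ commutator G)

theorem mul_inv_mem {g h : G} (e : Abelianization.of g = Abelianization.of h) :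
    g * h⁻¹ ∈ commutator G := by
  rw [← Abelianization.ker_of, MonoidHom.mem_ker, map_mul, map_inv, e, mul_inv_cancel]

theorem rep_mul_inv_mem (g : G) : g * (rep (Abelianization.of g))⁻¹ ∈ commutator G :=
  mul_inv_mem (of_rep _).symm

/-- The additive retraction of `G` to the abelianization of `G'`. -/
def retr (x : R0 G) : Additive (Abelianization ↥(commutator G)) :=
  x.coeff.sum fun g z =>
    z • Additive.ofMul (Abelianization.of (⟨g * (rep (Abelianization.of g))⁻¹, rep_mul_inv_mem g⟩ : ↥(commutator G)))

theorem retr_add (x y : R0 G) : retr (x + y) = retr x + retr y := by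
  unfold retr
  rw [MonoidAlgebra.coeff_add, Finsupp.sum_add_index']
  · intro a; simp
  · intro a b₁ b₂; simp [add_smul]

theorem retr_of (g : G) : retr (MonoidAlgebra.of ℤ G g) =
    Additive.ofMul (Abelianization.of (⟨g * (rep (Abelianization.of g))⁻¹, rep_mul_inv_mem g⟩ : ↥(commutator G))) := by
  unfold retr
  simp [MonoidAlgebra.coeff_single]

/-- `retr` as an additive hom. -/
def retrHom : R0 G →+ Additive (Abelianization ↥(commutator G)) :=
  AddMonoidHom.mk' retr retr_add

theorem retr_of_mul {a : G} (ha : a ∈ commutator G) (g : G) :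
    retr (MonoidAlgebra.of ℤ G (a * g)) = Additive.ofMul (Abelianization.of (⟨a, ha⟩ : ↥(commutator G))) +
      retr (MonoidAlgebra.of ℤ G g) := by
  rw [retr_of, retr_of, ← ofMul_mul, ← map_mul]
  congr 2
  apply Subtype.ext
  have e : Abelianization.of (a * g) = Abelianization.of g := by
    rw [map_mul, show Abelianization.of a = 1 from MonoidHom.mem_ker.mp (Abelianization.ker_of (G := G) ▸ ha),
      one_mul]
  simp only [Subgroup.coe_mul, e, mul_assoc]

theorem retr_gen (r : R0 G) {a : G} (ha : a ∈ commutator G) (g : G) :
    retrHom (r * (phi a * phi g)) = 0 := by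
  induction r using MonoidAlgebra.induction_linear with
  | zero => simp
  | add f f' hf hf' => rw [add_mul, map_add, hf, hf', add_zero]
  | single h z =>
    have hs : (MonoidAlgebra.single h z : R0 G) = z • MonoidAlgebra.of ℤ G h := by simp
    rw [hs, smul_mul_assoc, map_zsmul]
    have ha' : h * a * h⁻¹ ∈ commutator G :=
      (inferInstance : (commutator G).Normal).conj_mem a ha h
    have e : MonoidAlgebra.of ℤ G h * (phi a * phi g) = MonoidAlgebra.of ℤ G ((h * a * h⁻¹) * (h * g))
        - MonoidAlgebra.of ℤ G ((h * a * h⁻¹) * h) - MonoidAlgebra.of ℤ G (h * g) + MonoidAlgebra.of ℤ G h := by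
      rw [show h * a * h⁻¹ * (h * g) = h * a * g by group, show h * a * h⁻¹ * h = h * a by group]
      simp only [phi, map_mul]
      noncomm_ring
    rw [e]
    simp only [map_add, map_sub]
    show z • (retr _ - retr _ - retr _ + retr _) = 0
    rw [retr_of_mul ha' (h * g), retr_of_mul ha' h]
    abel

theorem retr_relIdeal {x : R0 G} (hx : x ∈ relIdeal G) : retrHom x = 0 := by
  have key : ∀ r : R0 G, retrHom (r * x) = 0 := by
    induction hx using Submodule.span_induction with
    | mem y hy =>
      obtain ⟨a, ha, g, rfl⟩ := hy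
      exact fun r => retr_gen r ha g
    | zero => intro r; simp
    | add y z _ _ hy hz => intro r; rw [mul_add, map_add, hy, hz, add_zero]
    | smul s y _ hy => intro r; rw [smul_eq_mul, ← mul_assoc]; exact hy _
  simpa using key 1

theorem retr_phi {a : G} (ha : a ∈ commutator G) :
    retrHom (phi a) = Additive.ofMul (Abelianization.of (⟨a, ha⟩ : ↥(commutator G))) := by
  rw [phi, map_sub]
  show retr _ - retr _ = _
  have := retr_of_mul ha 1
  rw [mul_one, MonoidAlgebra.one_def] at *
  rw [this]
  simp

/-- A section of the projection. -/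
def sect (x : MonoidAlgebra ℤ (Abelianization G)) : R0 G :=
  x.coeff.sum fun q z => MonoidAlgebra.single (rep q) z

theorem sect_add (x y : MonoidAlgebra ℤ (Abelianization G)) : sect (x + y) = sect x + sect y := by
  unfold sect
  rw [MonoidAlgebra.coeff_add, Finsupp.sum_add_index']
  · intro a; simp
  · intro a b₁ b₂; simp

theorem sect_single (q : Abelianization G) (z : ℤ) :
    sect (MonoidAlgebra.single q z) = MonoidAlgebra.single (rep q) z := by
  simp [sect, MonoidAlgebra.coeff_single]

theorem sect_zero : sect (0 : MonoidAlgebra ℤ (Abelianization G)) = 0 := by simp [sect]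

theorem proj_sect (x : MonoidAlgebra ℤ (Abelianization G)) : proj (sect x) = x := by
  induction x using MonoidAlgebra.induction_linear with
  | zero => rw [sect_zero, map_zero]
  | add f f' hf hf' => rw [sect_add, map_add, hf, hf']
  | single q z => rw [sect_single, proj_single, of_rep]

theorem sub_sect_mul_phi (r : R0 G) (g : G) : (r - sect (proj r)) * phi g ∈ relIdeal G := by
  induction r using MonoidAlgebra.induction_linear with
  | zero => rw [map_zero, sect_zero, sub_zero, zero_mul]; exact zero_mem _
  | add f f' hf hf' =>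
    rw [map_add, sect_add, show f + f' - (sect (proj f) + sect (proj f')) =
      (f - sect (proj f)) + (f' - sect (proj f')) by abel, add_mul]
    exact add_mem hf hf'
  | single h z =>
    rw [proj_single, sect_single]
    set c := rep (Abelianization.of h) with hc
    have ha : c⁻¹ * h ∈ commutator G := by
      have := (inferInstance : (commutator G).Normal).conj_mem _ (rep_mul_inv_mem h) c⁻¹
      simpa [mul_assoc, hc] using this
    have e : (MonoidAlgebra.single h z : R0 G) - MonoidAlgebra.single c z =
        MonoidAlgebra.single c z * phi (c⁻¹ * h) := by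
      simp [phi, mul_sub]
    rw [e, mul_assoc]
    exact Submodule.smul_mem _ _ (Submodule.subset_span ⟨_, ha, g, rfl⟩)

theorem mul_phi_mem {r r' : R0 G} (e : proj r = proj r') (g : G) (h : r' * phi g ∈ relIdeal G) :
    r * phi g ∈ relIdeal G := by
  have h1 := sub_sect_mul_phi r g
  have h2 := sub_sect_mul_phi r' g
  rw [e] at h1
  have : r * phi g = (r - sect (proj r')) * phi g - (r' - sect (proj r')) * phi g + r' * phi g := by
    simp only [sub_mul]; abel
  rw [this]
  exact add_mem (sub_mem h1 h2) h

theorem proj_relIdeal {x : R0 G} (hx : x ∈ relIdeal G) : proj x = 0 := by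
  induction hx using Submodule.span_induction with
  | mem y hy =>
    obtain ⟨a, ha, g, rfl⟩ := hy
    rw [map_mul, phi, map_sub, proj_of,
      show Abelianization.of a = 1 from MonoidHom.mem_ker.mp (Abelianization.ker_of (G := G) ▸ ha),
      map_one, map_one, sub_self, zero_mul]
  | zero => exact map_zero _
  | add y z _ _ hy hz => rw [map_add, hy, hz, add_zero]
  | smul s y _ hy => rw [smul_eq_mul, map_mul, hy, mul_zero]

/-- The augmentation of the group ring of the abelianization. -/
def aug : MonoidAlgebra ℤ (Abelianization G) →+* ℤ :=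
  (MonoidAlgebra.lift ℤ ℤ (Abelianization G) 1).toRingHom

theorem aug_single (q : Abelianization G) (z : ℤ) : aug (MonoidAlgebra.single q z) = z := by
  simp [aug]

section Finite

variable [Fintype G]

/-- Integer vectors lifting to relations between the `g - 1`. -/
def relLattice (G : Type*) [Group G] [Fintype G] : AddSubgroup (G → ℤ) where
  carrier := {v | ∃ α : G → R0 G, (∀ j, aug (proj (α j)) = v j) ∧ ∑ j, α j * phi j = 0}
  zero_mem' := ⟨0, fun j => by simp, by simp⟩
  add_mem' := by
    rintro v w ⟨α, hα, hα'⟩ ⟨β, hβ, hβ'⟩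
    refine ⟨α + β, fun j => by simp [hα j, hβ j], ?_⟩
    simp [add_mul, Finset.sum_add_distrib, hα', hβ']
  neg_mem' := by
    rintro v ⟨α, hα, hα'⟩
    refine ⟨-α, fun j => by simp [hα j], ?_⟩
    simp [hα']

theorem single_rel_mem [DecidableEq G] (g h : G) :
    (Pi.single (g * h) 1 - Pi.single g 1 - Pi.single h 1 : G → ℤ) ∈ relLattice G := by
  refine ⟨Pi.single (g * h) 1 - Pi.single g 1 - Pi.single h (MonoidAlgebra.of ℤ G g), fun j => ?_, ?_⟩
  · have hf : ∀ (i : G) (x : R0 G), aug (proj (Pi.single (M := fun _ => R0 G) i x j)) =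
        Pi.single (M := fun _ => ℤ) i (aug (proj x)) j := fun i x => by
      rcases eq_or_ne j i with rfl | hji
      · simp
      · simp [hji]
    simp only [Pi.sub_apply, map_sub, hf, map_one, proj_of, MonoidAlgebra.of_apply, proj_single, aug_single]
  · simp only [Pi.sub_apply, sub_mul, Finset.sum_sub_distrib]
    rw [Finset.sum_eq_single (g * h), Finset.sum_eq_single g, Finset.sum_eq_single h]
    · simp only [Pi.single_eq_same, phi, map_mul]
      noncomm_ring
    all_goals simp +contextual

/-- Exponent vectors evaluated in the abelianization. -/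
def evalHom (G : Type*) [Group G] [Fintype G] : (G → ℤ) →ₗ[ℤ] Additive (Abelianization G) where
  toFun v := ∑ g, v g • Additive.ofMul (Abelianization.of g)
  map_add' v w := by simp [add_smul, Finset.sum_add_distrib]
  map_smul' c v := by simp [mul_smul, Finset.smul_sum]

theorem evalHom_surjective : Function.Surjective (evalHom G) := by
  classical
  intro q
  obtain ⟨g, hg⟩ : ∃ g : G, Abelianization.of g = q.toMul := ⟨_, of_rep _⟩
  refine ⟨Pi.single g 1, ?_⟩
  show ∑ h, _ = _
  rw [Finset.sum_eq_single g]
  · simp [hg]
  · intro b _ hb; simp [hb]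
  · simp

theorem ker_evalHom_le {v : G → ℤ} (hv : evalHom G v = 0) : v ∈ relLattice G := by
  classical
  let χ : G →* Multiplicative ((G → ℤ) ⧸ relLattice G) :=
    MonoidHom.mk' (fun g => Multiplicative.ofAdd (QuotientAddGroup.mk (Pi.single g (1 : ℤ)))) (fun g h => by
      rw [← ofAdd_add, ← QuotientAddGroup.mk_add]
      congr 1
      rw [QuotientAddGroup.eq]
      have := AddSubgroup.neg_mem _ (single_rel_mem g h)
      convert this using 1
      abel)
  let χ' : Additive (Abelianization G) →+ (G → ℤ) ⧸ relLattice G :=
    MonoidHom.toAdditiveLeft (Abelianization.lift χ)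
  have hχ : ∀ g, χ' (Additive.ofMul (Abelianization.of g)) = QuotientAddGroup.mk (Pi.single g (1 : ℤ)) := by
    intro g
    simp [χ', χ]
  have h0 : χ' (evalHom G v) = 0 := by rw [hv, map_zero]
  rw [show evalHom G v = ∑ g, v g • Additive.ofMul (Abelianization.of g) from rfl, map_sum] at h0
  simp only [map_zsmul, hχ, ← QuotientAddGroup.mk_zsmul] at h0
  rw [← QuotientAddGroup.mk_sum, QuotientAddGroup.eq_zero_iff] at h0
  convert h0 using 1
  exact pi_eq_sum_univ' v

/-- The sum of all elements of the abelianization. -/
def norm (G : Type*) [Group G] [Fintype G] [Fintype (Abelianization G)] :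
    MonoidAlgebra ℤ (Abelianization G) :=
  ∑ q, MonoidAlgebra.of ℤ (Abelianization G) q

theorem mul_norm [Fintype (Abelianization G)] (x : MonoidAlgebra ℤ (Abelianization G)) :
    x * norm G = aug x • norm G := by
  induction x using MonoidAlgebra.induction_linear with
  | zero => simp
  | add f f' hf hf' => rw [add_mul, map_add, add_smul, hf, hf']
  | single q z =>
    rw [aug_single, norm, Finset.mul_sum, Finset.smul_sum]
    refine Fintype.sum_equiv (Equiv.mulLeft q) _ _ fun r => ?_
    simp [MonoidAlgebra.single_mul_single]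

/-- The norm annihilates the augmentation module modulo `relIdeal`. -/
theorem norm_mul_phi_mem [Fintype (Abelianization G)] (r : R0 G) (hr : proj r = norm G) (g : G) :
    r * phi g ∈ relIdeal G := by
  classical
  let K : Submodule ℤ (G → ℤ) := LinearMap.ker (evalHom G)
  have hcard : Nat.card ((G → ℤ) ⧸ K) = Nat.card (Abelianization G) :=
    Nat.card_congr ((evalHom G).quotKerEquivOfSurjective evalHom_surjective).toEquiv
  have hfin : Finite ((G → ℤ) ⧸ K) :=
    Finite.of_equiv (Additive (Abelianization G)) ((evalHom G).quotKerEquivOfSurjective evalHom_surjective).toEquiv.symm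
  have hrk := (Submodule.finiteQuotient_iff K).mp hfin
  let bK := Submodule.smithNormalFormBotBasis (Pi.basisFun ℤ G) hrk
  have hdet : ((Pi.basisFun ℤ G).det ((↑) ∘ bK)).natAbs = Nat.card (Abelianization G) := by
    rw [Submodule.natAbs_det_basis_change, hcard]
  have hrel : ∀ i, ∃ α : G → R0 G, (∀ j, aug (proj (α j)) = (bK i : G → ℤ) j) ∧ ∑ j, α j * phi j = 0 :=
    fun i => ker_evalHom_le (LinearMap.mem_ker.mp (bK i).2)
  choose α hα hα' using hrel
  let Am : Matrix G G (MonoidAlgebra ℤ (Abelianization G)) := Matrix.of fun i j => proj (α i j)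
  set δ := Am.det with hδ
  have hδaug : (aug δ).natAbs = Nat.card (Abelianization G) := by
    rw [← hdet, hδ, RingHom.map_det, Module.Basis.det_apply, ← Matrix.det_transpose]
    congr 2
    ext i j
    simp [Am, Module.Basis.toMatrix_apply, hα]
  have hkill : ∀ k : G, sect δ * phi k ∈ relIdeal G := by
    intro k
    have h0 : ∑ i, sect (Am.adjugate k i) * ∑ j, α i j * phi j = 0 := by simp [hα']
    simp only [Finset.mul_sum, ← mul_assoc] at h0
    rw [Finset.sum_comm] at h0
    simp only [← Finset.sum_mul] at h0
    set c : G → R0 G := fun j => ∑ i, sect (Am.adjugate k i) * α i j with hc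
    have hproj : ∀ j, proj (c j) = (δ • (1 : Matrix G G (MonoidAlgebra ℤ (Abelianization G)))) k j := by
      intro j
      rw [← Matrix.adjugate_mul, Matrix.mul_apply, hc]
      simp [proj_sect, Am]
    have hne : ∀ j, j ≠ k → c j * phi j ∈ relIdeal G := by
      intro j hj
      refine mul_phi_mem (r' := 0) ?_ j (by rw [zero_mul]; exact zero_mem _)
      rw [hproj, map_zero, Matrix.smul_apply, Matrix.one_apply_ne hj.symm, smul_zero]
    rw [← Finset.add_sum_erase _ _ (Finset.mem_univ k), add_eq_zero_iff_eq_neg] at h0
    refine mul_phi_mem (r' := c k) ?_ k ?_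
    · rw [proj_sect, hproj, Matrix.smul_apply, Matrix.one_apply_eq, smul_eq_mul, mul_one]
    · rw [h0]
      exact neg_mem (sum_mem fun j hj => hne j (Finset.ne_of_mem_erase hj))
  have hfix : ∀ q : Abelianization G, δ * MonoidAlgebra.of ℤ _ q = δ := by
    intro q
    have := proj_relIdeal (hkill (rep q))
    rw [map_mul, proj_sect, phi, map_sub, proj_of, of_rep, map_one, mul_sub, mul_one, sub_eq_zero] at this
    exact this
  have h1 : δ * norm G = (Nat.card (Abelianization G) : ℤ) • δ := by
    rw [norm, Finset.mul_sum, Finset.sum_congr rfl fun q _ => hfix q, Finset.sum_const, Finset.card_univ,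
      Nat.card_eq_fintype_card, natCast_zsmul]
  rw [mul_norm] at h1
  have hn0 : (Nat.card (Abelianization G) : ℤ) ≠ 0 := by
    simp [Nat.card_eq_fintype_card, Fintype.card_ne_zero]
  have hcancel : ∀ x y : MonoidAlgebra ℤ (Abelianization G),
      (Nat.card (Abelianization G) : ℤ) • x = (Nat.card (Abelianization G) : ℤ) • y → x = y := by
    intro x y h
    apply MonoidAlgebra.coeff_injective
    ext m
    have := congrArg (fun z => MonoidAlgebra.coeff z m) h
    simp only [MonoidAlgebra.coeff_smul_apply, smul_eq_mul] at this
    exact mul_left_cancel₀ hn0 this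
  rcases Int.natAbs_eq (aug δ) with h | h <;> rw [hδaug] at h
  · rw [h] at h1
    refine mul_phi_mem ?_ g (hkill g)
    rw [hr, proj_sect, hcancel _ _ h1]
  · rw [h] at h1
    refine mul_phi_mem (r' := -sect δ) ?_ g ?_
    · rw [hr, map_neg, proj_sect]
      apply hcancel
      rw [smul_neg, ← h1, neg_smul, neg_neg]
    · rw [neg_mul]; exact neg_mem (hkill g)

theorem phi_mul (x y : G) : phi (x * y) = phi x + MonoidAlgebra.of ℤ G x * phi y := by
  simp only [phi, map_mul]
  noncomm_ring

theorem phi_mem_add {a : G} (ha : a ∈ commutator G) (y : G) :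
    phi (a * y) - (phi a + phi y) ∈ relIdeal G := by
  have e : phi (a * y) - (phi a + phi y) = (1 : R0 G) • (phi a * phi y) := by
    rw [one_smul, phi_mul]
    simp only [phi]
    noncomm_ring
  rw [e]
  exact Submodule.smul_mem _ _ (Submodule.subset_span ⟨a, ha, y, rfl⟩)

/-- The product of the Schreier elements is trivial in the abelianization of `G'`. -/
theorem sum_retr_eq_zero [Fintype (Abelianization G)] {g : G} (s : Abelianization G → G)
    (σ : Equiv.Perm (Abelianization G)) (hs : Function.Bijective fun q => Abelianization.of (s q))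
    (a : Abelianization G → ↥(commutator G)) (ha : ∀ q, s (σ q) * g = (a q : G) * s q) :
    ∑ q, Additive.ofMul (Abelianization.of (a q)) = 0 := by
  have h1 : (∑ q, MonoidAlgebra.of ℤ G (s q)) * phi g ∈ relIdeal G := by
    refine norm_mul_phi_mem _ ?_ g
    rw [map_sum, norm]
    simp only [proj_of]
    exact Fintype.sum_equiv (Equiv.ofBijective _ hs) _ _ fun q => rfl
  have h2 : ∑ q, phi (a q : G) ∈ relIdeal G := by
    have key : (∑ q, MonoidAlgebra.of ℤ G (s q)) * phi g =
        ∑ q, phi (a q : G) + ∑ q, (phi ((a q : G) * s q) - (phi (a q : G) + phi (s q))) := by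
      rw [Finset.sum_mul, ← Equiv.sum_comp σ (fun q => MonoidAlgebra.of ℤ G (s q) * phi g),
        ← Finset.sum_add_distrib]
      have e1 : ∀ q, MonoidAlgebra.of ℤ G (s (σ q)) * phi g = phi ((a q : G) * s q) - phi (s (σ q)) := by
        intro q
        rw [← ha q, phi_mul]
        abel
      simp only [e1, Finset.sum_sub_distrib, add_sub_cancel]
      rw [Equiv.sum_comp σ (fun q => phi (s q)), Finset.sum_add_distrib, Finset.sum_sub_distrib,
        Finset.sum_add_distrib]
      abel
    rw [key] at h1
    exact (add_mem_cancel_right (sum_mem fun q _ => phi_mem_add (a q).2 (s q))).mp h1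
  have h3 := retr_relIdeal h2
  rw [map_sum] at h3
  rw [← h3]
  exact Finset.sum_congr rfl fun q _ => (retr_phi (a q).2).symm

end Finite

/-- Furtwängler's theorem. -/
theorem transfer_eq_one [Finite G] :
    MonoidHom.transfer (Abelianization.of : ↥(commutator G) →* Abelianization ↥(commutator G)) =
      (1 : G →* Abelianization ↥(commutator G)) := by
  classical
  have := Fintype.ofFinite G
  letI : Fintype (Abelianization G) := (commutator G).fintypeQuotientOfFiniteIndex
  refine MonoidHom.ext fun g => ?_
  rw [MonoidHom.one_apply]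
  let T : (commutator G).LeftTransversal := default
  rw [MonoidHom.transfer_def _ T g]
  let e := T.2.leftQuotientEquiv
  let e' := (g • T).2.leftQuotientEquiv
  let s : Abelianization G → G := fun q => ((e q : T.1) : G)⁻¹
  have he : ∀ q : G ⧸ commutator G, (((e q : T.1) : G) : G ⧸ commutator G) = q := fun q =>
    Subgroup.IsComplement.quotientGroupMk_leftQuotientEquiv T.2 q
  have hs : Function.Bijective fun q => Abelianization.of (s q) := by
    have : (fun q => Abelianization.of (s q)) = fun q => q⁻¹ := funext fun q => by
      show Abelianization.of (((e q : T.1) : G)⁻¹) = _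
      rw [map_inv]
      exact congrArg (fun z : Abelianization G => z⁻¹) (he q)
    rw [this]
    exact (Equiv.inv _).bijective
  have hmem : ∀ q : G ⧸ commutator G, ((e q : T.1) : G)⁻¹ * ((e' q : (g • T).1) : G) ∈ commutator G :=
    fun q => QuotientGroup.eq.mp ((he q).trans (Subgroup.IsComplement.quotientGroupMk_leftQuotientEquiv (g • T).2 q).symm)
  let σ : Equiv.Perm (Abelianization G) := (MulAction.toPerm (g⁻¹ : G) : Equiv.Perm (G ⧸ commutator G))
  have key := sum_retr_eq_zero (g := g⁻¹) s σ hs (fun q => ⟨_, hmem q⟩⁻¹) (fun q => by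
    have e2 : ((e' q : (g • T).1) : G) = g * ((e (g⁻¹ • (show G ⧸ commutator G from q)) : T.1) : G) :=
      Subgroup.smul_apply_eq_smul_apply_inv_smul g T q
    show ((e (g⁻¹ • (show G ⧸ commutator G from q)) : T.1) : G)⁻¹ * g⁻¹ = (((e q : T.1) : G)⁻¹ * ((e' q : (g • T).1) : G))⁻¹ *
      ((e q : T.1) : G)⁻¹
    rw [e2]
    group)
  have h2 : ∑ q : Abelianization G, Additive.ofMul (Abelianization.of (⟨_, hmem q⟩ : ↥(commutator G))) = 0 := by
    rw [← neg_eq_zero, ← Finset.sum_neg_distrib, ← key]
    refine Fintype.sum_congr _ _ fun q => ?_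
    simp
  have h3 := congrArg Additive.toMul h2
  rw [toMul_sum, toMul_zero] at h3
  exact h3

end CfsgLib.Furtwaengler
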